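import Mathlib
import Cfsg.Agent.Lib.Helper55.OOG.Defs
import Cfsg.Agent.Lib.Helper66.OPG.Gens

/-!
# Project OOG (S2413): package [SHIFT]

The signed cyclic shift `e_i ↦ e_{i+1}`, `e_n ↦ (-1)^n e_0` lies in the Levi subgroup.
-/

set_option autoImplicit false
open scoped Matrix

namespace Cfsg.Agent.Lib.Helper66.OOG

open Cfsg.Agent.Lib.Helper55.OOG Cfsg.Agent.Lib.Helper40.SLTwoGen

universe u

section

variable (n : ℕ) (F : Type u) [Field F]

/-- the transpose of `cox`: `e_i ↦ η_i e_{i+1}` -/
def shiftM : Matrix (Fin (n + 1)) (Fin (n + 1)) F := (cox n F)ᵀ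

theorem shiftM_apply (a i : Fin (n + 1)) :
    shiftM n F a i = if a = i + 1 then eta n F i else 0 := by
  unfold shiftM
  rw [Matrix.transpose_apply, cox_apply]

/-- the inverse transpose of `shiftM` -/
def shiftN : Matrix (Fin (n + 1)) (Fin (n + 1)) F :=
  Matrix.of (fun a i => if a = i + 1 then (eta n F i)⁻¹ else 0)

theorem shiftN_apply (a i : Fin (n + 1)) :
    shiftN n F a i = if a = i + 1 then (eta n F i)⁻¹ else 0 := rfl

theorem shiftM_inv : (shiftM n F)⁻¹ = (shiftN n F)ᵀ := by
  apply Matrix.inv_eq_right_inv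
  ext a b
  rw [Matrix.mul_apply, Finset.sum_eq_single (a - 1)]
  · rw [shiftM_apply, Matrix.transpose_apply, shiftN_apply, if_pos (sub_add_cancel a 1).symm]
    by_cases h : a = b
    · subst h
      rw [if_pos (sub_add_cancel a 1).symm, Matrix.one_apply_eq,
        mul_inv_cancel₀ (eta_ne_zero _)]
    · rw [if_neg, mul_zero, Matrix.one_apply_ne h]
      intro hb
      apply h
      rw [hb, sub_add_cancel]
  · intro i _ hi
    rw [shiftM_apply, if_neg, zero_mul]
    intro ha
    apply hi
    rw [ha, add_sub_cancel_right]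
  · intro h
    exact absurd (Finset.mem_univ _) h

theorem det_shiftM : (shiftM n F).det = 1 := by
  unfold shiftM
  rw [Matrix.det_transpose]
  exact Cfsg.Agent.Lib.Helper66.OPG.det_cox n

/-- the shift as an element of `SL` -/
def shiftSL : Matrix.SpecialLinearGroup (Fin (n + 1)) F := ⟨shiftM n F, det_shiftM n F⟩

theorem levi_shift_E (i : Fin (n + 1)) :
    leviMat (shiftM n F) *ᵥ (E i : Vec (n + 1) F) = eta n F i • (E (i + 1) : Vec (n + 1) F) := by
  funext k
  rw [Matrix.mulVec_single_one]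
  rcases k with k | k | k
  · simp [leviMat]
  · simp only [leviMat, Matrix.col_apply, Matrix.fromBlocks_apply₂₂, Matrix.fromBlocks_apply₁₁,
      Pi.smul_apply, smul_eq_mul]
    rw [shiftM_apply]
    by_cases h : k = i + 1
    · rw [if_pos h, h]
      simp
    · rw [if_neg h]
      simp [h]
  · simp [leviMat]

theorem levi_shift_Fv (i : Fin (n + 1)) :
    leviMat (shiftM n F) *ᵥ (Fv i : Vec (n + 1) F) =
      (eta n F i)⁻¹ • (Fv (i + 1) : Vec (n + 1) F) := by
  funext k
  rw [Matrix.mulVec_single_one]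
  rcases k with k | k | k
  · simp [leviMat]
  · simp [leviMat]
  · simp only [leviMat, Matrix.col_apply, Matrix.fromBlocks_apply₂₂, Pi.smul_apply, smul_eq_mul]
    rw [shiftM_inv, Matrix.transpose_transpose, shiftN_apply]
    by_cases h : k = i + 1
    · rw [if_pos h, h]
      simp
    · rw [if_neg h]
      simp [h]

theorem levi_shift_T0 :
    leviMat (shiftM n F) *ᵥ (T0 : Vec (n + 1) F) = (T0 : Vec (n + 1) F) := by
  funext k
  rw [Matrix.mulVec_single_one]
  rcases k with k | k | k
  · simp [leviMat]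
  · simp [leviMat]
  · simp [leviMat]

end

/-- [SHIFT] -/
theorem pkgShift : PkgShift.{u} := by
  intro n F _ L hL
  refine ⟨shiftSL n F, ?_, ?_, ?_⟩
  · intro i
    have h1 : eta n F i.castSucc = 1 := by
      unfold eta
      rw [if_neg]
      rw [Fin.val_castSucc]
      exact i.isLt.ne
    have h2 : (i.castSucc + 1 : Fin (n + 1)) = i.succ := Fin.coeSucc_eq_succ
    constructor
    · rw [hL]
      show leviMat (shiftM n F) *ᵥ (E i.castSucc : Vec (n + 1) F) = E i.succ
      rw [levi_shift_E, h1, one_smul, h2]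
    · rw [hL]
      show leviMat (shiftM n F) *ᵥ (Fv i.castSucc : Vec (n + 1) F) = Fv i.succ
      rw [levi_shift_Fv, h1, inv_one, one_smul, h2]
  · refine ⟨eta n F (Fin.last n), eta_ne_zero _, ?_, ?_⟩
    · rw [hL]
      show leviMat (shiftM n F) *ᵥ (E (Fin.last n) : Vec (n + 1) F) = _
      rw [levi_shift_E, Fin.last_add_one]
    · rw [hL]
      show leviMat (shiftM n F) *ᵥ (Fv (Fin.last n) : Vec (n + 1) F) = _
      rw [levi_shift_Fv, Fin.last_add_one]
  · rw [hL]
    exact levi_shift_T0 n F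

end Cfsg.Agent.Lib.Helper66.OOG
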